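import Cfsg.Agent.SharplyTransitive.Four

/-!
Sylow subgroups of prime degree, Jordan's theorem for `k ≥ 6`, and simplicity in degrees 11, 12.
-/

set_option autoImplicit false

namespace CfsgLib.SharplyTransitive

variable {G α : Type*} [Group G] [MulAction G α] [Fintype α]

theorem natCard_eq {k : ℕ} (h : Sharp k G α) (hk : k ≤ Fintype.card α) :
    Nat.card G = (Fintype.card α).descFactorial k := by
  classical
  obtain ⟨x⟩ := Function.Embedding.nonempty_of_card_le (α := Fin k) (β := α)
    (by rwa [Fintype.card_fin])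
  let f : G → (Fin k ↪ α) := fun g =>
    ⟨fun i => g • x i, (MulAction.injective g).comp x.injective⟩
  have hf : Function.Bijective f := by
    constructor
    · intro g g' e
      have e' := h.2 (g'⁻¹ * g) x fun i => by
        have ei : g • x i = g' • x i := DFunLike.congr_fun e i
        rw [mul_smul, ei, inv_smul_smul]
      rwa [inv_mul_eq_one, eq_comm] at e'
    · intro y
      obtain ⟨g, hg⟩ := h.1 x y
      exact ⟨g, Function.Embedding.ext hg⟩
  rw [Nat.card_eq_of_bijective f hf, Nat.card_eq_fintype_card, Fintype.card_embedding_eq,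
    Fintype.card_fin]

/-- A sharply `k`-transitive action with `1 ≤ k ≤ n` is faithful. -/
theorem eq_one_of_fix_all {k : ℕ} (h : Sharp k G α) (hk : k ≤ Fintype.card α) {g : G}
    (hg : ∀ x : α, g • x = x) : g = 1 := by
  classical
  obtain ⟨x⟩ := Function.Embedding.nonempty_of_card_le (α := Fin k) (β := α)
    (by rwa [Fintype.card_fin])
  exact h.2 g x fun i => hg _

/-- A nontrivial normal subgroup of a faithful 2-transitive action is transitive. -/
theorem transitive_of_normal (h2 : ∀ x y x' y' : α, x ≠ y → x' ≠ y' → ∃ g : G, g • x = x' ∧ g • y = y')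
    (hfaith : ∀ g : G, (∀ x : α, g • x = x) → g = 1) (N : Subgroup G) [hN : N.Normal] (hne : N ≠ ⊥)
    (y z : α) : ∃ n ∈ N, n • y = z := by
  by_cases hyz : y = z
  · exact ⟨1, one_mem _, by rw [one_smul, hyz]⟩
  obtain ⟨n, hn, hn1⟩ := (Subgroup.bot_or_exists_ne_one N).resolve_left hne
  obtain ⟨x, hx⟩ : ∃ x : α, n • x ≠ x := by
    by_contra hcon
    push Not at hcon
    exact hn1 (hfaith n hcon)
  obtain ⟨g, hg1, hg2⟩ := h2 x (n • x) y z (Ne.symm hx) hyz
  exact ⟨g * n * g⁻¹, hN.conj_mem n hn g, by rw [mul_smul, mul_smul, ← hg1, inv_smul_smul, hg2]⟩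

theorem two_trans {k : ℕ} (h : Sharp k G α) (hk2 : 2 ≤ k) (hk : k ≤ Fintype.card α)
    (x y x' y' : α) (hxy : x ≠ y) (hxy' : x' ≠ y') : ∃ g : G, g • x = x' ∧ g • y = y' := by
  classical
  obtain ⟨m, rfl⟩ : ∃ m, k = m + 2 := ⟨k - 2, by omega⟩
  have ext : ∀ a b : α, a ≠ b → ∃ e : Fin (m + 2) ↪ α, e 0 = a ∧ e 1 = b := by
    intro a b hab
    obtain ⟨e⟩ := Function.Embedding.nonempty_of_card_le (α := Fin (m + 2)) (β := α)
      (by rwa [Fintype.card_fin])
    set σ₁ := Equiv.swap (e 0) a with hσ₁
    set σ₂ := Equiv.swap (σ₁ (e 1)) b with hσ₂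
    refine ⟨e.trans (σ₁.trans σ₂).toEmbedding, ?_, ?_⟩
    · show σ₂ (σ₁ (e 0)) = a
      have h1 : σ₁ (e 0) = a := Equiv.swap_apply_left _ _
      rw [h1, hσ₂, Equiv.swap_apply_of_ne_of_ne ?_ hab]
      rw [← h1]
      exact σ₁.injective.ne (e.injective.ne (by simp))
    · show σ₂ (σ₁ (e 1)) = b
      exact Equiv.swap_apply_left _ _
  obtain ⟨e, he0, he1⟩ := ext x y hxy
  obtain ⟨e', he0', he1'⟩ := ext x' y' hxy'
  obtain ⟨g, hg⟩ := h.1 e e'
  exact ⟨g, by rw [← he0, hg, he0'], by rw [← he1, hg, he1']⟩

/-- In prime degree the normalizer of a Sylow subgroup of order `p` has order `p * d`, `d ∣ p-1`. -/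
theorem normalizer_data {p : ℕ} [hp : Fact p.Prime] (hα : Fintype.card α = p) [Finite G]
    (hfaith : ∀ g : G, (∀ x : α, g • x = x) → g = 1) (P : Sylow p G)
    (hP : Nat.card (P : Subgroup G) = p) :
    ∃ d, d ∣ p - 1 ∧ Nat.card (Subgroup.normalizer ((P : Subgroup G) : Set G)) = p * d := by
  classical
  obtain ⟨⟨σ, hσP⟩, hσ⟩ := exists_prime_orderOf_dvd_card' (G := (P : Subgroup G)) p (by rw [hP])
  rw [← Subgroup.orderOf_coe] at hσ
  change orderOf σ = p at hσ
  obtain ⟨x, hx⟩ : ∃ x : α, σ • x ≠ x := by
    by_contra hcon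
    push Not at hcon
    rw [hfaith σ hcon, orderOf_one] at hσ
    exact hp.out.ne_one hσ.symm
  -- the orbit of x under P is everything
  have horb : ∀ y : α, ∃ g : (P : Subgroup G), (g : G) • x = y := by
    intro y
    have h1 : MulAction.orbit (P : Subgroup G) x = Set.univ := by
      have hdiv : (MulAction.orbit (P : Subgroup G) x).ncard ∣ p := by
        have hq := Subgroup.card_quotient_dvd_card (MulAction.stabilizer (P : Subgroup G) x)
        rw [hP] at hq
        rw [← Nat.card_coe_set_eq,
          Nat.card_congr (MulAction.orbitEquivQuotientStabilizer (P : Subgroup G) x)]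
        exact hq
      have hne : 1 < (MulAction.orbit (P : Subgroup G) x).ncard :=
        (Set.one_lt_ncard (Set.toFinite _)).mpr ⟨x, MulAction.mem_orbit_self x, σ • x, ⟨⟨σ, hσP⟩, rfl⟩, Ne.symm hx⟩
      rcases (Nat.dvd_prime hp.out).mp hdiv with h | h
      · omega
      · refine Set.eq_of_subset_of_ncard_le (Set.subset_univ _) ?_ (Set.toFinite _)
        rw [Set.ncard_univ, Nat.card_eq_fintype_card, hα, h]
    exact (h1.symm ▸ Set.mem_univ y : y ∈ MulAction.orbit (P : Subgroup G) x)
  let Nm := Subgroup.normalizer ((P : Subgroup G) : Set G)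
  let Nx : Subgroup Nm := MulAction.stabilizer Nm x
  have hidx : Nx.index = p := by
    rw [MulAction.index_stabilizer]
    have : MulAction.orbit Nm x = Set.univ := Set.eq_univ_of_forall fun y => by
      obtain ⟨g, hg⟩ := horb y
      exact ⟨⟨g.1, Subgroup.le_normalizer g.2⟩, hg⟩
    rw [this, Set.ncard_univ, Nat.card_eq_fintype_card, hα]
  refine ⟨Nat.card Nx, ?_, ?_⟩
  · haveI : IsCyclic (P : Subgroup G) := isCyclic_of_prime_card hP
    have hAut : Nat.card (MulAut (P : Subgroup G)) = p - 1 := by
      rw [IsCyclic.card_mulAut, hP, Nat.totient_prime hp.out]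
    let f : Nx →* MulAut (P : Subgroup G) :=
      { toFun := fun g =>
          { toFun := fun q => ⟨(g.1 : G) * q * (g.1 : G)⁻¹,
              (Subgroup.mem_normalizer_iff.mp g.1.2 q).mp q.2⟩
            invFun := fun q => ⟨(g.1 : G)⁻¹ * q * (g.1 : G), by
              rw [Subgroup.mem_normalizer_iff.mp g.1.2]
              simpa [mul_assoc] using q.2⟩
            left_inv := fun q => Subtype.ext (by simp [mul_assoc])
            right_inv := fun q => Subtype.ext (by simp [mul_assoc])
            map_mul' := fun q r => Subtype.ext (by simp [mul_assoc]) }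
        map_one' := by ext q; simp
        map_mul' := fun g g' => by ext q; simp [mul_assoc] }
    have hinj : Function.Injective f := by
      rw [injective_iff_map_eq_one]
      intro g hg
      apply Subtype.ext; apply Subtype.ext
      refine hfaith _ fun y => ?_
      obtain ⟨q, rfl⟩ := horb y
      have e : (g.1 : G) * q * (g.1 : G)⁻¹ = q :=
        congrArg Subtype.val (DFunLike.congr_fun hg q)
      rw [mul_inv_eq_iff_eq_mul] at e
      rw [smul_smul, e, mul_smul]
      exact congrArg ((q : G) • ·) g.2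
    rw [← hAut]
    exact Subgroup.card_dvd_of_injective f hinj
  · exact Nx.card_mul_index.symm.trans (by rw [hidx, mul_comm])

/-- For `k ≥ 6` the degree is `k`, `k+1` or `k+2`. -/
theorem degree_large : ∀ (m : ℕ) {G α : Type*} [Group G] [MulAction G α] [Fintype α],
    Sharp (6 + m) G α → 6 + m ≤ Fintype.card α → Fintype.card α ≤ 6 + m + 2
  | 0, G, α, _, _, _ => by
    intro h h6
    classical
    obtain ⟨a⟩ : Nonempty α := Fintype.card_pos_iff.mp (by omega)
    letI : Fintype (SubMulAction.ofStabilizer G a) := Fintype.ofFinite _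
    have hc := card_ofStabilizer (G := G) a
    rw [Nat.card_eq_fintype_card] at hc
    have h5 := degree_five (h.stab a) (by omega)
    by_contra hcon
    have h13 : Fintype.card α = 13 := by omega
    obtain ⟨x⟩ := Function.Embedding.nonempty_of_card_le (α := Fin 6) (β := α)
      (by rw [Fintype.card_fin]; omega)
    haveI := finite_group h x
    have hG : Nat.card G = 1235520 := by
      rw [natCard_eq h h6, h13]; rfl
    haveI : Fact (Nat.Prime 13) := ⟨by norm_num⟩
    obtain ⟨P⟩ : Nonempty (Sylow 13 G) := inferInstance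
    have hP : Nat.card (P : Subgroup G) = 13 := by
      obtain ⟨n, hn⟩ := IsPGroup.iff_card.mp P.isPGroup'
      have hd := (P : Subgroup G).card_subgroup_dvd_card
      have hpos : 13 ∣ Nat.card (P : Subgroup G) := P.dvd_card_of_dvd_card (by rw [hG]; norm_num)
      rw [hn] at hd hpos ⊢
      rw [hG] at hd
      rcases n with - | - | n
      · norm_num at hpos
      · rfl
      · exfalso
        have h169 : 169 ∣ 1235520 := dvd_trans ⟨13 ^ n, by rw [pow_add]; ring⟩ hd
        norm_num at h169
    obtain ⟨d, hd, hN⟩ :=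
      normalizer_data h13 (fun g => eq_one_of_fix_all h (by omega)) P hP
    have hmod := card_sylow_modEq_one 13 G
    rw [Sylow.card_eq_index_normalizer P] at hmod
    have hmul := (Subgroup.normalizer ((P : Subgroup G) : Set G)).card_mul_index
    rw [hN, hG] at hmul
    set i := (Subgroup.normalizer ((P : Subgroup G) : Set G)).index
    have hle : d ≤ 12 := Nat.le_of_dvd (by norm_num) hd
    have hi : i % 13 = 1 := hmod
    interval_cases d <;> norm_num at hd <;> omega
  | m + 1, G, α, _, _, _ => by
    intro h hm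
    classical
    obtain ⟨a⟩ : Nonempty α := Fintype.card_pos_iff.mp (by omega)
    letI : Fintype (SubMulAction.ofStabilizer G a) := Fintype.ofFinite _
    have hc := card_ofStabilizer (G := G) a
    rw [Nat.card_eq_fintype_card] at hc
    have := degree_large m (h.stab a) (by omega)
    omega

/-- A sharply 4-transitive group of degree 11 is simple of order 7920. -/
theorem simple_eleven (h : Sharp 4 G α) (hα : Fintype.card α = 11) :
    IsSimpleGroup G ∧ Nat.card G = 7920 := by
  classical
  have hG : Nat.card G = 7920 := by rw [natCard_eq h (by omega), hα]; rfl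
  haveI : Finite G := Nat.finite_of_card_ne_zero (by omega)
  haveI : Fact (Nat.Prime 11) := ⟨by norm_num⟩
  have hfaith : ∀ g : G, (∀ x : α, g • x = x) → g = 1 := fun g => eq_one_of_fix_all h (by omega)
  have htrans := fun (N : Subgroup G) (_ : N.Normal) =>
    transitive_of_normal (G := G) (two_trans h (by norm_num) (by omega)) hfaith N
  refine ⟨?_, hG⟩
  haveI : Nontrivial G := Finite.one_lt_card_iff_nontrivial.mp (by omega)
  refine ⟨fun N hN => ?_⟩
  by_cases hne : N = ⊥
  · exact Or.inl hne
  right
  have h11 : ∀ K : Subgroup G, K.Normal → K ≠ ⊥ → 11 ∣ Nat.card K := by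
    intro K hK hK1
    obtain ⟨x⟩ : Nonempty α := Fintype.card_pos_iff.mp (by omega)
    have e : MulAction.orbit K x = Set.univ := Set.eq_univ_of_forall fun y => by
      obtain ⟨n, hn, hy⟩ := htrans K hK hK1 x y
      exact ⟨⟨n, hn⟩, hy⟩
    have := Subgroup.index_dvd_card (H := MulAction.stabilizer K x)
    rwa [MulAction.index_stabilizer, e, Set.ncard_univ, Nat.card_eq_fintype_card, hα] at this
  obtain ⟨Q⟩ : Nonempty (Sylow 11 N) := inferInstance
  have hQ : Nat.card (Q : Subgroup N) = 11 := by
    obtain ⟨n, hn⟩ := IsPGroup.iff_card.mp Q.isPGroup'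
    have hd := ((Q : Subgroup N).card_subgroup_dvd_card).trans N.card_subgroup_dvd_card
    have hpos : 11 ∣ Nat.card (Q : Subgroup N) := Q.dvd_card_of_dvd_card (h11 N hN hne)
    rw [hn] at hd hpos ⊢
    rw [hG] at hd
    rcases n with - | - | n
    · norm_num at hpos
    · rfl
    · exfalso
      have h121 : 121 ∣ 7920 := dvd_trans ⟨11 ^ n, by rw [pow_add]; ring⟩ hd
      norm_num at h121
  set Q' : Subgroup G := (Q : Subgroup N).map N.subtype with hQ'
  have hQ'c : Nat.card Q' = 11 := by
    rw [hQ', Subgroup.card_map_of_injective N.subtype_injective, hQ]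
  obtain ⟨P, hP⟩ := (IsPGroup.of_card (n := 1) (by rw [hQ'c, pow_one]) : IsPGroup 11 Q').exists_le_sylow
  have hPc : Nat.card (P : Subgroup G) = 11 := by
    obtain ⟨n, hn⟩ := IsPGroup.iff_card.mp P.isPGroup'
    have hd := (P : Subgroup G).card_subgroup_dvd_card
    have hpos := Subgroup.card_dvd_of_le hP
    rw [hn] at hd hpos ⊢
    rw [hG] at hd
    rw [hQ'c] at hpos
    rcases n with - | - | n
    · norm_num at hpos
    · rfl
    · exfalso
      have h121 : 121 ∣ 7920 := dvd_trans ⟨11 ^ n, by rw [pow_add]; ring⟩ hd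
      norm_num at h121
  have hPQ : (P : Subgroup G) = Q' :=
    (Subgroup.eq_of_le_of_card_ge hP (by rw [hPc, hQ'c])).symm
  obtain ⟨d, hd, hNd⟩ := normalizer_data hα hfaith P hPc
  have hd5 : d = 5 := by
    have hmod := card_sylow_modEq_one 11 G
    rw [Sylow.card_eq_index_normalizer P] at hmod
    have hmul := (Subgroup.normalizer ((P : Subgroup G) : Set G)).card_mul_index
    rw [hNd, hG] at hmul
    set i := (Subgroup.normalizer ((P : Subgroup G) : Set G)).index
    have hle : d ≤ 10 := Nat.le_of_dvd (by norm_num) hd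
    have hi : i % 11 = 1 := hmod
    interval_cases d <;> norm_num at hd <;> omega
  have hfr := Sylow.normalizer_sup_eq_top Q
  rw [← hQ', ← hPQ] at hfr
  set Nm := Subgroup.normalizer ((P : Subgroup G) : Set G) with hNm
  have hidx : N.index * Nat.card (N.subgroupOf Nm) = 55 := by
    have e : N.index = N.relIndex Nm := by
      rw [← Subgroup.relIndex_top_right, ← hfr, Subgroup.relIndex_sup_right]
    rw [e, mul_comm]
    show Nat.card (N.subgroupOf Nm) * (N.subgroupOf Nm).index = 55
    rw [Subgroup.card_mul_index, hNd, hd5]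
  have hcop : ¬ 11 ∣ N.index := by
    intro h'
    have e := N.card_mul_index
    rw [hG] at e
    have h121 : 11 * 11 ∣ 7920 := e ▸ Nat.mul_dvd_mul (h11 N hN hne) h'
    norm_num at h121
  have hdvd : N.index ∣ 55 := ⟨_, hidx.symm⟩
  have h5 : N.index = 1 ∨ N.index = 5 := by
    have hcop' : N.index.Coprime 11 :=
      ((Nat.Prime.coprime_iff_not_dvd (by norm_num)).mpr hcop).symm
    exact (Nat.dvd_prime (by norm_num : Nat.Prime 5)).mp (hcop'.dvd_of_dvd_mul_left hdvd)
  rcases h5 with h5 | h5
  · exact Subgroup.index_eq_one.mp h5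
  exfalso
  have hNc : Nat.card N = 1584 := by
    have e := N.card_mul_index; rw [hG, h5] at e; omega
  -- the normalizer of Q in N is Q, so N has a normal 11-complement
  have hQn : Nat.card (Subgroup.normalizer ((Q : Subgroup N) : Set N)) ≤ 11 := by
    have h55 : Nat.card (N.subgroupOf Nm) = 11 := by rw [h5] at hidx; omega
    refine le_of_le_of_eq ?_ h55
    refine Nat.card_le_card_of_injective
      (fun g : Subgroup.normalizer ((Q : Subgroup N) : Set N) =>
        (⟨⟨((g : N) : G), ?_⟩, (g : N).2⟩ : N.subgroupOf Nm)) ?_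
    · have hg := Subgroup.le_normalizer_map (H := (Q : Subgroup N)) N.subtype
        (Subgroup.mem_map_of_mem _ g.2)
      rwa [← hQ', ← hPQ] at hg
    · intro g g' e
      exact Subtype.ext (Subtype.ext (congrArg (fun z : N.subgroupOf Nm => ((z : Nm) : G)) e))
  have hnc : Subgroup.normalizer ((Q : Subgroup N) : Set N) ≤
      Subgroup.centralizer ((Q : Subgroup N) : Set N) := by
    have e := Subgroup.eq_of_le_of_card_ge
      (Subgroup.le_normalizer (H := (Q : Subgroup N))) (by rw [hQ]; exact hQn)
    rw [← e]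
    haveI : IsCyclic (Q : Subgroup N) := isCyclic_of_prime_card hQ
    exact Subgroup.le_centralizer _
  have hcompl := MonoidHom.ker_transferSylow_isComplement' Q hnc
  set K := (MonoidHom.transferSylow Q hnc).ker with hK
  have hKc : Nat.card K = 144 := by
    have e := hcompl.card_mul; rw [hQ, hNc] at e; omega
  set K' : Subgroup G := K.map N.subtype with hK'
  have hK'c : Nat.card K' = 144 := by
    rw [hK', Subgroup.card_map_of_injective N.subtype_injective, hKc]
  have hK'n : K'.Normal := by
    refine ⟨fun x hx g => ?_⟩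
    obtain ⟨k, hk, rfl⟩ := Subgroup.mem_map.mp hx
    have hmem : g * (k : G) * g⁻¹ ∈ N := hN.conj_mem _ k.2 g
    refine Subgroup.mem_map.mpr ⟨⟨_, hmem⟩, ?_, rfl⟩
    have hord : orderOf (⟨_, hmem⟩ : N) ∣ 144 := by
      rw [← Subgroup.orderOf_coe]
      show orderOf (g * (k : G) * g⁻¹) ∣ 144
      rw [(SemiconjBy.conj_mk g (k : G)).orderOf_eq.symm, Subgroup.orderOf_coe, ← hKc,
        ← Subgroup.orderOf_mk k hk]
      exact orderOf_dvd_natCard _
    rw [hK, MonoidHom.mem_ker, ← orderOf_eq_one_iff]
    have h1 := (orderOf_map_dvd (MonoidHom.transferSylow Q hnc) (⟨_, hmem⟩ : N)).trans hord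
    have h2 := orderOf_dvd_natCard (MonoidHom.transferSylow Q hnc ⟨_, hmem⟩)
    rw [hQ] at h2
    exact Nat.eq_one_of_dvd_coprimes (by norm_num : Nat.Coprime 144 11) h1 h2
  have h144 := h11 K' hK'n (fun e => by rw [e, Subgroup.card_bot] at hK'c; omega)
  rw [hK'c] at h144
  norm_num at h144

/-- A sharply 5-transitive group of degree 12 is simple of order 95040. -/
theorem simple_twelve (h : Sharp 5 G α) (hα : Fintype.card α = 12) :
    IsSimpleGroup G ∧ Nat.card G = 95040 := by
  classical
  have hG : Nat.card G = 95040 := by rw [natCard_eq h (by omega), hα]; rfl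
  haveI : Finite G := Nat.finite_of_card_ne_zero (by omega)
  refine ⟨?_, hG⟩
  obtain ⟨a⟩ : Nonempty α := Fintype.card_pos_iff.mp (by omega)
  letI : Fintype (SubMulAction.ofStabilizer G a) := Fintype.ofFinite _
  have hc := card_ofStabilizer (G := G) a
  rw [Nat.card_eq_fintype_card] at hc
  haveI hS := (simple_eleven (h.stab a) (by omega)).1
  have hfaith : ∀ g : G, (∀ x : α, g • x = x) → g = 1 := fun g => eq_one_of_fix_all h (by omega)
  have h2 := two_trans h (by norm_num) (show 5 ≤ Fintype.card α by omega)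
  haveI : Nontrivial G := Finite.one_lt_card_iff_nontrivial.mp (by omega)
  refine ⟨fun N hN => ?_⟩
  by_cases hne : N = ⊥
  · exact Or.inl hne
  have htr := transitive_of_normal (G := G) h2 hfaith N hne
  rcases IsSimpleGroup.eq_bot_or_eq_top_of_normal (N.subgroupOf (MulAction.stabilizer G a))
      inferInstance with hb | ht
  · exfalso
    -- N is regular
    have hbij : Function.Bijective fun n : N => (n : G) • a := by
      constructor
      · intro n m e
        have hmem : (m : G)⁻¹ * n ∈ MulAction.stabilizer G a := by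
          show ((m : G)⁻¹ * n) • a = a
          have e' : (n : G) • a = (m : G) • a := e
          rw [mul_smul, e', inv_smul_smul]
        have e1 : (⟨_, hmem⟩ : MulAction.stabilizer G a) ∈ N.subgroupOf _ :=
          N.mul_mem (N.inv_mem m.2) n.2
        rw [hb, Subgroup.mem_bot] at e1
        exact Subtype.ext (inv_mul_eq_one.mp (congrArg Subtype.val e1)).symm
      · intro y
        obtain ⟨n, hn, hy⟩ := htr a y
        exact ⟨⟨n, hn⟩, hy⟩
    have hN12 : Nat.card N = 12 := by
      rw [Nat.card_eq_of_bijective _ hbij, Nat.card_eq_fintype_card, hα]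
    haveI : Fact (Nat.Prime 2) := ⟨Nat.prime_two⟩
    haveI : Fact (Nat.Prime 3) := ⟨Nat.prime_three⟩
    obtain ⟨s, hs⟩ := exists_prime_orderOf_dvd_card' (G := N) 2 (by rw [hN12]; norm_num)
    obtain ⟨t, ht⟩ := exists_prime_orderOf_dvd_card' (G := N) 3 (by rw [hN12]; norm_num)
    have hne1 : ∀ n : N, n ≠ 1 → a ≠ (n : G) • a := fun n hn e =>
      hn (hbij.1 (by simp [← e]))
    obtain ⟨g, hg1, hg2⟩ := h2 a ((s : G) • a) a ((t : G) • a)
      (hne1 s fun e => by simp [e] at hs) (hne1 t fun e => by simp [e] at ht)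
    have e : (⟨g * s * g⁻¹, hN.conj_mem _ s.2 g⟩ : N) = t := by
      apply hbij.1
      show (g * (s : G) * g⁻¹) • a = (t : G) • a
      rw [mul_smul, mul_smul, show g⁻¹ • a = a by rw [inv_smul_eq_iff, hg1], hg2]
    have e3 := congrArg orderOf e
    rw [← Subgroup.orderOf_coe, ht] at e3
    change orderOf (g * (s : G) * g⁻¹) = 3 at e3
    rw [(SemiconjBy.conj_mk g (s : G)).orderOf_eq.symm, Subgroup.orderOf_coe, hs] at e3
    omega
  · right
    rw [Subgroup.eq_top_iff']
    intro g
    obtain ⟨n, hn, hna⟩ := htr a (g • a)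
    have hmem : n⁻¹ * g ∈ MulAction.stabilizer G a := by
      show (n⁻¹ * g) • a = a
      rw [mul_smul, ← hna, inv_smul_smul]
    have : (⟨_, hmem⟩ : MulAction.stabilizer G a) ∈ N.subgroupOf _ := by rw [ht]; trivial
    have h' : n⁻¹ * g ∈ N := this
    simpa using N.mul_mem hn h'

end CfsgLib.SharplyTransitive
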