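import Mathlib

/-!
Sharply `k`-transitive actions: elementary facts.
-/

set_option autoImplicit false

namespace CfsgLib.SharplyTransitive

/-- The action is sharply `k`-transitive. -/
def Sharp (k : ℕ) (G α : Type*) [Group G] [MulAction G α] : Prop :=
  (∀ x y : Fin k ↪ α, ∃ g : G, ∀ i, g • x i = y i) ∧
    ∀ (g : G) (x : Fin k ↪ α), (∀ i, g • x i = x i) → g = 1

variable {G α : Type*} [Group G] [MulAction G α]

theorem sharp_of_subgroup {β : Type*} (G : Subgroup (Equiv.Perm β)) (k : ℕ)
    [MulAction.IsMultiplyPretransitive G β k]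
    (h : ∀ x : Fin k ↪ β, MulAction.stabilizer G x = ⊥) : Sharp k G β := by
  refine ⟨fun x y => ?_, fun g x hg => ?_⟩
  · obtain ⟨g, hg⟩ := MulAction.exists_smul_eq G x y
    exact ⟨g, fun i => by rw [← hg]; rfl⟩
  · have hmem : g ∈ MulAction.stabilizer G x :=
      MulAction.mem_stabilizer_iff.mpr (Function.Embedding.ext hg)
    rw [h x] at hmem
    exact Subgroup.mem_bot.mp hmem

/-- An embedding of `Fin 2`. -/
def emb2 {β : Type*} (a b : β) (h : a ≠ b) : Fin 2 ↪ β :=
  ⟨![a, b], by intro i j; fin_cases i <;> fin_cases j <;> simp [h, h.symm]⟩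

/-- An embedding of `Fin 4`. -/
def emb4 {β : Type*} (a b c d : β) (hab : a ≠ b) (hac : a ≠ c) (had : a ≠ d) (hbc : b ≠ c)
    (hbd : b ≠ d) (hcd : c ≠ d) : Fin 4 ↪ β :=
  ⟨![a, b, c, d], by
    intro i j
    fin_cases i <;> fin_cases j <;>
      simp [hab, hac, had, hbc, hbd, hcd, hab.symm, hac.symm, had.symm, hbc.symm, hbd.symm,
        hcd.symm]⟩

theorem finite_group [Finite α] {k : ℕ} (h : Sharp k G α) (x : Fin k ↪ α) : Finite G := by
  refine Finite.of_injective (fun g : G => fun i => g • x i) fun g g' hg => ?_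
  have := h.2 (g'⁻¹ * g) x fun i => by
    have e : g • x i = g' • x i := congrFun hg i
    rw [mul_smul, e, inv_smul_smul]
  rwa [inv_mul_eq_one, eq_comm] at this

theorem card_fixed_lt [Fintype α] [DecidableEq α] {k : ℕ} (h : Sharp k G α) {g : G} (hg : g ≠ 1) :
    (Finset.univ.filter fun x : α => g • x = x).card < k := by
  by_contra hk
  push Not at hk
  obtain ⟨e⟩ := Function.Embedding.nonempty_of_card_le
    (α := Fin k) (β := (Finset.univ.filter fun x : α => g • x = x))
    (by rwa [Fintype.card_fin, Fintype.card_coe])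
  refine hg (h.2 g (e.trans (Function.Embedding.subtype _)) fun i => ?_)
  exact (Finset.mem_filter.mp (e i).2).2

/-- The stabiliser of a point is sharply `k`-transitive on the other points. -/
theorem Sharp.stab {k : ℕ} (h : Sharp (k + 1) G α) (a : α) :
    Sharp k (MulAction.stabilizer G a) (SubMulAction.ofStabilizer G a) := by
  have ext1 : ∀ x : Fin k ↪ SubMulAction.ofStabilizer G a,
      ∃ x' : Fin (k + 1) ↪ α, x' 0 = a ∧ ∀ i : Fin k, x' i.succ = (x i : α) := by
    intro x
    refine ⟨⟨Fin.cons a fun i => (x i : α), ?_⟩, rfl, fun i => rfl⟩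
    rw [Fin.cons_injective_iff]
    refine ⟨?_, Subtype.val_injective.comp x.injective⟩
    rintro ⟨i, hi⟩
    exact (SubMulAction.mem_ofStabilizer_iff G a).mp (x i).2 hi
  refine ⟨fun x y => ?_, fun g x hg => ?_⟩
  · obtain ⟨x', hx0, hx⟩ := ext1 x
    obtain ⟨y', hy0, hy⟩ := ext1 y
    obtain ⟨g, hg⟩ := h.1 x' y'
    refine ⟨⟨g, MulAction.mem_stabilizer_iff.mpr ?_⟩, fun i => Subtype.ext ?_⟩
    · have := hg 0
      rwa [hx0, hy0] at this
    · have := hg i.succ
      rwa [hx, hy] at this
  · obtain ⟨x', hx0, hx⟩ := ext1 x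
    apply Subtype.ext
    refine h.2 g.1 x' fun i => ?_
    induction i using Fin.cases with
    | zero => rw [hx0]; exact g.2
    | succ i => rw [hx]; exact congrArg Subtype.val (hg i)

theorem card_ofStabilizer [Fintype α] [DecidableEq α] (a : α) :
    Nat.card (SubMulAction.ofStabilizer G a) + 1 = Fintype.card α := by
  rw [← Nat.card_eq_fintype_card (α := α)]
  have h := (Nat.card_congr (Equiv.optionSubtypeNe a)).symm
  rw [Finite.card_option] at h
  rw [h]
  congr 1

end CfsgLib.SharplyTransitive
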