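import Cfsg.Agent.SharplyTransitive.Two
import Cfsg.Agent.SharplyTransitive.Basic

/-!
Jordan's theorem: degrees of sharply 4- and 5-transitive actions.
-/

set_option autoImplicit false

namespace CfsgLib.SharplyTransitive

variable {G α : Type*} [Group G] [MulAction G α] [Fintype α]

/-- A sharply 4-transitive action has degree 4, 5, 6 or 11. -/
theorem degree_four (h : Sharp 4 G α) (h4 : 4 ≤ Fintype.card α) :
    Fintype.card α = 4 ∨ Fintype.card α = 5 ∨ Fintype.card α = 6 ∨ Fintype.card α = 11 := by
  classical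
  by_cases h7 : Fintype.card α < 7
  · omega
  obtain ⟨p⟩ := Function.Embedding.nonempty_of_card_le (α := Fin 4) (β := α)
    (by rw [Fintype.card_fin]; omega)
  have := finite_group h p
  set a := p 0
  set b := p 1
  set c := p 2
  set d := p 3
  have hab : a ≠ b := p.injective.ne (by decide)
  have hac : a ≠ c := p.injective.ne (by decide)
  have had : a ≠ d := p.injective.ne (by decide)
  have hbc : b ≠ c := p.injective.ne (by decide)
  have hbd : b ≠ d := p.injective.ne (by decide)
  have hcd : c ≠ d := p.injective.ne (by decide)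
  have fix4 : ∀ {g : G} {x y z w : α}, x ≠ y → x ≠ z → x ≠ w → y ≠ z → y ≠ w → z ≠ w →
      g • x = x → g • y = y → g • z = z → g • w = w → g = 1 := by
    intro g x y z w h1 h2 h3 h4 h5 h6 e1 e2 e3 e4
    refine h.2 g (emb4 x y z w h1 h2 h3 h4 h5 h6) fun i => ?_
    fin_cases i
    exacts [e1, e2, e3, e4]
  -- the element u = (a b)(c)(d)...
  obtain ⟨u, hu⟩ := h.1 p (emb4 b a c d hab.symm hbc hbd hac had hcd)
  have hua : u • a = b := hu 0
  have hub : u • b = a := hu 1
  have huc : u • c = c := hu 2
  have hud : u • d = d := hu 3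
  have hu2 : u * u = 1 := fix4 hab hac had hbc hbd hcd (by rw [mul_smul, hua, hub])
    (by rw [mul_smul, hub, hua]) (by rw [mul_smul, huc, huc]) (by rw [mul_smul, hud, hud])
  have hu' : u⁻¹ = u := inv_eq_of_mul_eq_one_right hu2
  -- the two point stabiliser acting on the other points
  let H : Subgroup G := MulAction.stabilizer G a ⊓ MulAction.stabilizer G b
  let Ω : Type _ := {x : α // x ≠ a ∧ x ≠ b}
  have hHa : ∀ g : H, (g : G) • a = a := fun g => g.2.1
  have hHb : ∀ g : H, (g : G) • b = b := fun g => g.2.2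
  letI act : MulAction H Ω :=
    { smul := fun g x => ⟨(g : G) • x.1,
        fun e => x.2.1 (MulAction.injective (g : G) (e.trans (hHa g).symm)),
        fun e => x.2.2 (MulAction.injective (g : G) (e.trans (hHb g).symm))⟩
      one_smul := fun x => Subtype.ext (one_smul G x.1)
      mul_smul := fun g g' x => Subtype.ext (mul_smul (g : G) g' x.1) }
  have hval : ∀ (g : H) (x : Ω), (g • x).1 = (g : G) • x.1 := fun _ _ => rfl
  have hex : ∀ x y x' y' : Ω, x ≠ y → x' ≠ y' → ∃ m : H, m • x = x' ∧ m • y = y' := by
    intro x y x' y' hxy hxy'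
    obtain ⟨g, hg⟩ := h.1
      (emb4 a b x.1 y.1 hab x.2.1.symm y.2.1.symm x.2.2.symm y.2.2.symm
        (fun e => hxy (Subtype.ext e)))
      (emb4 a b x'.1 y'.1 hab x'.2.1.symm y'.2.1.symm x'.2.2.symm y'.2.2.symm
        (fun e => hxy' (Subtype.ext e)))
    exact ⟨⟨g, hg 0, hg 1⟩, Subtype.ext (hg 2), Subtype.ext (hg 3)⟩
  have huniq : ∀ (m : H) (x y : Ω), x ≠ y → m • x = x → m • y = y → m = 1 :=
    fun m x y hxy e1 e2 => Subtype.ext (fix4 hab x.2.1.symm y.2.1.symm x.2.2.symm y.2.2.symm
      (fun e => hxy (Subtype.ext e)) (hHa m) (hHb m) (congrArg Subtype.val e1)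
      (congrArg Subtype.val e2))
  letI : Fintype H := Fintype.ofFinite _
  set o : Ω := ⟨c, hac.symm, hbc.symm⟩ with hodef
  set d' : Ω := ⟨d, had.symm, hbd.symm⟩
  haveI : Nontrivial Ω := ⟨⟨o, d', fun e => hcd (congrArg Subtype.val e)⟩⟩
  obtain ⟨N, hN, hcomm, hbij, hcase⟩ := exists_kernel hex huniq
  have hq : Fintype.card Ω + 2 = Fintype.card α := by
    have e : Fintype.card Ω = ((Finset.univ.erase a).erase b).card :=
      Fintype.card_of_subtype _ (fun x => by simp [and_comm])
    rw [e, Finset.card_erase_of_mem (by simp [hab.symm]),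
      Finset.card_erase_of_mem (Finset.mem_univ _), Finset.card_univ]
    omega
  have hNq : Nat.card N = Fintype.card Ω := by
    rw [← Nat.card_eq_fintype_card]; exact Nat.card_eq_of_bijective _ (hbij o)
  -- conjugation by u
  have hτ : ∀ n : N, ∃ m : N, ((m : H) : G) = u * ((n : H) : G) * u := by
    intro n
    have hmem : u * ((n : H) : G) * u ∈ H := by
      constructor
      · show (u * ((n : H) : G) * u) • a = a
        rw [mul_smul, mul_smul, hua, hHb, hub]
      · show (u * ((n : H) : G) * u) • b = b
        rw [mul_smul, mul_smul, hub, hHa, hua]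
    refine ⟨⟨⟨_, hmem⟩, (hN _).mpr ?_⟩, rfl⟩
    rcases (hN (n : H)).mp n.2 with e | e
    · left; apply Subtype.ext
      show u * ((n : H) : G) * u = 1
      rw [e, OneMemClass.coe_one, mul_one, hu2]
    · right
      intro x hx
      have hx' : (u * ((n : H) : G) * u) • x.1 = x.1 := congrArg Subtype.val hx
      rw [mul_smul, mul_smul, ← eq_inv_smul_iff, hu'] at hx'
      refine e ⟨u • x.1, fun q => x.2.2 (MulAction.injective u (q.trans hub.symm)),
        fun q => x.2.1 (MulAction.injective u (q.trans hua.symm))⟩ (Subtype.ext hx')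
  choose τ hτval using hτ
  let v : N → G := fun n => ((n : H) : G)
  have hvinj : Function.Injective v := Subtype.val_injective.comp Subtype.val_injective
  have hτmul : ∀ n m : N, τ (n * m) = τ n * τ m := fun n m => hvinj <| by
    show ((τ (n * m) : H) : G) = ((τ n : H) : G) * ((τ m : H) : G)
    rw [hτval, hτval, hτval]
    show u * (((n : H) : G) * ((m : H) : G)) * u = _
    simp only [mul_assoc]; rw [← mul_assoc u u, hu2, one_mul]
  have hτ2 : ∀ n : N, τ (τ n) = n := fun n => hvinj <| by
    show ((τ (τ n) : H) : G) = ((n : H) : G)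
    rw [hτval, hτval]
    simp only [← mul_assoc, hu2, one_mul]
    rw [mul_assoc, hu2, mul_one]
  have hτ1 : τ 1 = 1 := by
    have h1 := hτmul 1 1
    rw [one_mul] at h1
    exact (mul_left_cancel (a := τ 1) (h1.symm.trans (mul_one _).symm))
  have hcN : ∀ n m : N, n * m = m * n := fun n m => Subtype.ext (hcomm n n.2 m m.2).eq
  let φ : N →* N :=
    { toFun := fun n => n * τ n
      map_one' := by rw [hτ1, mul_one]
      map_mul' := fun n m => by
        rw [hτmul]
        simp only [mul_assoc]
        rw [← mul_assoc m, hcN m (τ n), mul_assoc] }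
  -- fixed points
  have hoinj : Function.Injective fun n : N => ((n : H) : G) • c := fun n m e =>
    (hbij o).1 (Subtype.ext e)
  have bound : ∀ g : G, g ≠ 1 → ∀ S : Subgroup N,
      (∀ n ∈ S, g • ((n : H) : G) • c = ((n : H) : G) • c) → Nat.card S ≤ 3 := by
    intro g hg S hS
    have hlt := card_fixed_lt h hg
    refine le_trans ?_ (Nat.lt_succ_iff.mp hlt)
    rw [← Nat.card_eq_finsetCard]
    refine Nat.card_le_card_of_injective
      (fun n : S => ⟨((n.1 : H) : G) • c, by simp [hS n.1 n.2]⟩) fun n m e => ?_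
    exact Subtype.ext (hoinj (congrArg Subtype.val e))
  have hucong : ∀ n : N, u • ((n : H) : G) • c = ((τ n : H) : G) • c := fun n => by
    rw [hτval, mul_smul, mul_smul, huc]
  let C : Subgroup N :=
    { carrier := {n | τ n = n}
      one_mem' := hτ1
      mul_mem' := fun {n m} hn hm => by
        show τ (n * m) = n * m
        rw [hτmul, hn, hm]
      inv_mem' := fun {n} hn => by
        show τ n⁻¹ = n⁻¹
        have h := hτmul n⁻¹ n
        rw [inv_mul_cancel, hτ1, hn] at h
        exact eq_inv_of_mul_eq_one_left h.symm }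
  have hu1 : u ≠ 1 := fun e => hab (by rw [← hua, e, one_smul])
  have hC : Nat.card C ≤ 3 := bound u hu1 C fun n hn => by
    rw [hucong, show τ n = n from hn]
  have hrange : φ.range ≤ C := by
    rintro _ ⟨n, rfl⟩
    show τ (n * τ n) = n * τ n
    rw [hτmul, hτ2, hcN]
  have hsplit : Nat.card φ.ker * Nat.card φ.range = Fintype.card Ω := by
    rw [← Subgroup.index_ker, Subgroup.card_mul_index, hNq]
  have hrangele : Nat.card φ.range ≤ 3 :=
    le_trans (Nat.card_le_card_of_injective _ (Subgroup.inclusion_injective hrange)) hC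
  rcases hcase with ⟨heven, hsq⟩ | ⟨hodd, hinv⟩
  · have hsq' : ∀ n : N, n * n = 1 := fun n => Subtype.ext (hsq n n.2)
    have two : ∀ S : Subgroup N, Nat.card S ≤ 3 → Nat.card S ≤ 2 := by
      intro S hS
      by_contra h2
      have h3 : Nat.card S = 3 := by omega
      obtain ⟨x, hx⟩ := exists_prime_orderOf_dvd_card' 3 (dvd_of_eq h3.symm)
      have hd : orderOf x ∣ 2 := orderOf_dvd_of_pow_eq_one (by
        rw [pow_two]; exact Subtype.ext (hsq' x.1))
      rw [hx] at hd; norm_num at hd
    have hker : φ.ker ≤ C := fun n hn => by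
      show τ n = n
      have e : n * τ n = 1 := hn
      exact mul_left_cancel (e.trans (hsq' n).symm)
    have hk := two φ.ker
      (le_trans (Nat.card_le_card_of_injective _ (Subgroup.inclusion_injective hker)) hC)
    have hr := two φ.range hrangele
    have := Nat.mul_le_mul hk hr
    omega
  · obtain ⟨s, hso, hsinv⟩ := hinv o
    have hg : (s : G) * u ≠ 1 := fun e => hab (by
      have e' : ((s : G) * u) • a = a := by rw [e, one_smul]
      rw [mul_smul, hua, hHb] at e'
      exact e'.symm)
    have hsc : (s : G) • c = c := congrArg Subtype.val hso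
    have hker : Nat.card φ.ker ≤ 3 := bound _ hg φ.ker fun n hn => by
      have e : τ n = n⁻¹ := eq_inv_of_mul_eq_one_right (show n * τ n = 1 from hn)
      have e2 : (s : G) * ((n : H) : G)⁻¹ * (s : G)⁻¹ = ((n : H) : G) := by
        have h := congrArg (fun x : H => ((x : G))) (hsinv (n : H) n.2)
        simp only [Subgroup.coe_mul, InvMemClass.coe_inv] at h
        have h' := congrArg (·⁻¹) h
        simpa [mul_inv_rev, mul_assoc] using h'
      rw [mul_smul, hucong, e]
      show (s : G) • ((n : H) : G)⁻¹ • c = _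
      rw [smul_smul]
      conv_rhs => rw [← e2]
      rw [mul_smul _ (s : G)⁻¹, inv_smul_eq_iff.mpr hsc.symm]
    have h3dvd : Nat.card C = 3 := by
      have hdvd : Nat.card C ∣ Fintype.card Ω := hNq ▸ C.card_subgroup_dvd_card
      have hodd' : Odd (Nat.card C) := hodd.of_dvd_nat hdvd
      have h1 : Nat.card C ≠ 1 := by
        intro e
        obtain ⟨n, hn⟩ := (hbij o).2 d'
        have hnc : ((n : H) : G) • c = d := congrArg Subtype.val hn
        have hmem : n ∈ C := hoinj (show ((τ n : H) : G) • c = ((n : H) : G) • c by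
          rw [← hucong, hnc, hud])
        have hC1 : C = ⊥ := Subgroup.card_eq_one.mp e
        rw [hC1, Subgroup.mem_bot] at hmem
        rw [hmem] at hnc
        exact hcd (by simpa using hnc)
      obtain ⟨k, hk⟩ := hodd'
      omega
    have h3q : 3 ∣ Fintype.card Ω := h3dvd ▸ hNq ▸ C.card_subgroup_dvd_card
    have := Nat.mul_le_mul hker hrangele
    obtain ⟨k, hk⟩ := hodd
    omega

/-- A sharply 5-transitive action has degree 5, 6, 7 or 12. -/
theorem degree_five (h : Sharp 5 G α) (h5 : 5 ≤ Fintype.card α) :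
    Fintype.card α = 5 ∨ Fintype.card α = 6 ∨ Fintype.card α = 7 ∨ Fintype.card α = 12 := by
  classical
  obtain ⟨a⟩ : Nonempty α := Fintype.card_pos_iff.mp (by omega)
  letI : Fintype (SubMulAction.ofStabilizer G a) := Fintype.ofFinite _
  have hc := card_ofStabilizer (G := G) a
  rw [Nat.card_eq_fintype_card] at hc
  have := degree_four (h.stab a) (by omega)
  omega

end CfsgLib.SharplyTransitive
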