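import Mathlib

/-!
Finite sharply 2-transitive actions: the fixed-point-free elements and 1 form a regular abelian
normal subgroup.
-/

set_option autoImplicit false

namespace CfsgLib.SharplyTransitive

variable {M X : Type*} [Group M] [MulAction M X] [Fintype M] [Fintype X]
  (hex : ∀ x y x' y' : X, x ≠ y → x' ≠ y' → ∃ m : M, m • x = x' ∧ m • y = y')
  (huniq : ∀ (m : M) (x y : X), x ≠ y → m • x = x → m • y = y → m = 1)

include huniq in
theorem eq_of_agree {m m' : M} {x y : X} (h : x ≠ y) (hx : m • x = m' • x) (hy : m • y = m' • y) :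
    m = m' := by
  have := huniq (m'⁻¹ * m) x y h (by rw [mul_smul, hx, inv_smul_smul])
    (by rw [mul_smul, hy, inv_smul_smul])
  rwa [inv_mul_eq_one, eq_comm] at this

omit [Fintype M] [Fintype X] in
theorem smul_smul_of_sq {m : M} (h : m * m = 1) (x : X) : m • m • x = x := by
  rw [smul_smul, h, one_smul]

include hex huniq in
theorem exists_swap {x y : X} (h : x ≠ y) : ∃ m : M, m * m = 1 ∧ m • x = y ∧ m • y = x := by
  obtain ⟨m, h1, h2⟩ := hex x y y x h h.symm
  exact ⟨m, huniq _ x y h (by rw [mul_smul, h1, h2]) (by rw [mul_smul, h2, h1]), h1, h2⟩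

include huniq in
theorem eq_of_map {s t : M} (hs : s * s = 1) (ht : t * t = 1) {x : X} (h : s • x = t • x)
    (hne : s • x ≠ x) : s = t := by
  refine eq_of_agree huniq hne.symm h ?_
  have h1 := smul_smul_of_sq hs x
  have h2 := smul_smul_of_sq ht x
  rw [← h] at h2
  rw [h1, h2]

include hex huniq in
/-- The number of elements. -/
theorem card_eq [Nontrivial X] :
    Fintype.card M = Fintype.card X * (Fintype.card X - 1) := by
  classical
  obtain ⟨x, y, hxy⟩ := exists_pair_ne X
  let f : M → (Finset.univ : Finset X).offDiag :=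
    fun m => ⟨(m • x, m • y), by simp [hxy]⟩
  have hf : Function.Bijective f := by
    constructor
    · intro m m' h
      have h1 := congrArg (fun p : (Finset.univ : Finset X).offDiag => p.1.1) h
      have h2 := congrArg (fun p : (Finset.univ : Finset X).offDiag => p.1.2) h
      exact eq_of_agree huniq hxy h1 h2
    · rintro ⟨⟨x', y'⟩, h⟩
      obtain ⟨m, h1, h2⟩ := hex x y x' y' hxy (by simpa using h)
      exact ⟨m, Subtype.ext (Prod.ext h1 h2)⟩
  rw [Fintype.card_of_bijective hf, Fintype.card_coe, Finset.offDiag_card, Finset.card_univ,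
    Nat.mul_sub, mul_one]

open Classical in
include hex huniq in
/-- There are exactly `|X| - 1` fixed point free elements. -/
theorem card_fpf [Nontrivial X] :
    (Finset.univ.filter fun m : M => ∀ x : X, m • x ≠ x).card = Fintype.card X - 1 := by
  set q := Fintype.card X with hq
  have hq2 : 2 ≤ q := Fintype.one_lt_card
  set F := (Finset.univ : Finset M).erase 1 with hF
  have hFc : F.card = q * (q - 1) - 1 := by
    rw [hF, Finset.card_erase_of_mem (Finset.mem_univ _), Finset.card_univ, card_eq hex huniq]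
  set D := Finset.univ.filter fun m : M => ∀ x : X, m • x ≠ x with hD
  have hfix : ∀ x : X, (F.filter fun m => m • x = x).card = q - 2 := by
    intro x
    obtain ⟨y, hy⟩ := exists_ne x
    rw [show q - 2 = ((Finset.univ.erase x).erase y).card by
      rw [Finset.card_erase_of_mem (by simp [hy]), Finset.card_erase_of_mem (Finset.mem_univ _),
        Finset.card_univ]; omega]
    refine Finset.card_bij (fun m _ => m • y) ?_ ?_ ?_
    · intro m hm
      simp only [hF, Finset.mem_filter, Finset.mem_erase, Finset.mem_univ, and_true] at hm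
      simp only [Finset.mem_erase, Finset.mem_univ, and_true]
      refine ⟨fun h => hm.1 (huniq m x y hy.symm hm.2 h), fun h => hy ?_⟩
      have h' : m • y = m • x := by rw [h, hm.2]
      exact (MulAction.injective m) h'
    · intro m hm m' hm' h
      simp only [hF, Finset.mem_filter] at hm hm'
      exact eq_of_agree huniq hy.symm (hm.2.trans hm'.2.symm) h
    · intro z hz
      simp only [Finset.mem_erase, Finset.mem_univ, and_true] at hz
      obtain ⟨m, h1, h2⟩ := hex x y x z hy.symm hz.2.symm
      refine ⟨m, ?_, h2⟩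
      simp only [hF, Finset.mem_filter, Finset.mem_erase, Finset.mem_univ, and_true]
      exact ⟨fun h => hz.1 (by rw [← h2, h, one_smul]), h1⟩
  have hsplit : F = D ∪ Finset.univ.biUnion (fun x : X => F.filter fun m => m • x = x) := by
    ext m
    simp only [hF, hD, Finset.mem_erase, Finset.mem_univ, and_true, Finset.mem_union,
      Finset.mem_filter, true_and, Finset.mem_biUnion]
    constructor
    · intro h
      by_cases hm : ∀ x : X, m • x ≠ x
      · exact Or.inl hm
      · push Not at hm
        obtain ⟨x, hx⟩ := hm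
        exact Or.inr ⟨x, h, hx⟩
    · rintro (h | ⟨x, h, -⟩)
      · rintro rfl
        obtain ⟨x⟩ := (inferInstance : Nonempty X)
        exact h x (one_smul _ _)
      · exact h
  have hdis : Disjoint D (Finset.univ.biUnion (fun x : X => F.filter fun m => m • x = x)) := by
    rw [Finset.disjoint_left]
    intro m hm hm'
    simp only [hD, Finset.mem_filter, Finset.mem_biUnion] at hm hm'
    obtain ⟨x, -, -, hx⟩ := hm'
    exact hm.2 x hx
  have hpd : ((Finset.univ : Finset X) : Set X).PairwiseDisjoint
      (fun x : X => F.filter fun m => m • x = x) := by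
    intro x _ y _ hxy
    rw [Function.onFun, Finset.disjoint_left]
    intro m hm hm'
    simp only [hF, Finset.mem_filter, Finset.mem_erase] at hm hm'
    exact hm.1.1 (huniq m x y hxy hm.2 hm'.2)
  have h := congrArg Finset.card hsplit
  rw [Finset.card_union_of_disjoint hdis, Finset.card_biUnion hpd,
    Finset.sum_congr rfl fun x _ => hfix x, Finset.sum_const, Finset.card_univ, smul_eq_mul,
    hFc] at h
  have e : q * (q - 1) = q * (q - 2) + q := by
    rw [← Nat.mul_succ]; congr 1; omega
  rw [← hq] at h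
  omega

open Classical in
include hex huniq in
/-- An involution has as many fixed points as `|X| % 2`. -/
theorem card_fixed {s : M} (hs : s * s = 1) (hs1 : s ≠ 1) :
    (Finset.univ.filter fun x : X => s • x = x).card = Fintype.card X % 2 := by
  have hle : (Finset.univ.filter fun x : X => s • x = x).card ≤ 1 := by
    rw [Finset.card_le_one]
    intro x hx y hy
    simp only [Finset.mem_filter, Finset.mem_univ, true_and] at hx hy
    by_contra h
    exact hs1 (huniq s x y h hx hy)
  have hsplit := Finset.card_filter_add_card_filter_not (s := (Finset.univ : Finset X))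
    (fun x : X => s • x = x)
  have heven : Even (Finset.univ.filter fun x : X => ¬ s • x = x).card := by
    have h0 : ∑ _x ∈ Finset.univ.filter (fun x : X => ¬ s • x = x), (1 : ZMod 2) = 0 :=
      Finset.sum_involution (fun x _ => s • x) (fun _ _ => by decide)
        (fun x hx _ => by simpa using hx)
        (fun x hx => by
          simp only [Finset.mem_filter, Finset.mem_univ, true_and] at hx ⊢
          rw [smul_smul_of_sq hs]; exact Ne.symm hx)
        (fun x _ => smul_smul_of_sq hs x)
    rw [Finset.sum_const, nsmul_one] at h0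
    exact even_iff_two_dvd.mpr ((ZMod.natCast_eq_zero_iff_even.mp h0).two_dvd)
  obtain ⟨k, hk⟩ := heven
  rw [Finset.card_univ, hk] at hsplit
  omega

open Classical in
include hex huniq in
/-- The kernel of a finite sharply 2-transitive action. -/
theorem exists_kernel [Nontrivial X] :
    ∃ N : Subgroup M, (∀ m, m ∈ N ↔ m = 1 ∨ ∀ x : X, m • x ≠ x) ∧
      (∀ a ∈ N, ∀ b ∈ N, Commute a b) ∧
      (∀ o : X, Function.Bijective fun n : N => (n : M) • o) ∧
      ((Even (Fintype.card X) ∧ ∀ n ∈ N, n * n = 1) ∨
        (Odd (Fintype.card X) ∧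
          ∀ o : X, ∃ s : M, s • o = o ∧ ∀ n ∈ N, s * n * s⁻¹ = n⁻¹)) := by
  set q := Fintype.card X with hq
  set D := Finset.univ.filter fun m : M => ∀ x : X, m • x ≠ x with hD
  have hDmem : ∀ {m : M}, m ∈ D ↔ ∀ x : X, m • x ≠ x := fun {m} => by simp [hD]
  obtain ⟨o₀⟩ := (inferInstance : Nonempty X)
  have hchoose : ∀ x : X, ∀ y ∈ Finset.univ.erase x, ∃ m : M, m * m = 1 ∧ m • x = y ∧ m • y = x :=
    fun x y hy => exists_swap hex huniq (Finset.ne_of_mem_erase hy).symm
  rcases Nat.even_or_odd q with he | ho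
  · -- involutions are fixed point free
    have hfree : ∀ s : M, s * s = 1 → s ≠ 1 → ∀ x : X, s • x ≠ x := by
      intro s hs h1 x hx
      have h := card_fixed hex huniq hs h1
      rw [Nat.even_iff.mp he, Finset.card_eq_zero] at h
      exact Finset.notMem_empty x (h ▸ Finset.mem_filter.mpr ⟨Finset.mem_univ _, hx⟩)
    -- hence every fixed point free element is one
    have hinv : ∀ m ∈ D, m * m = 1 := by
      choose f hf1 hf2 hf3 using hchoose o₀
      let S : Finset M := (Finset.univ.erase o₀).attach.image fun y => f y.1 y.2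
      have hsub : S ⊆ D := by
        intro m hm
        obtain ⟨⟨y, hy⟩, -, rfl⟩ := Finset.mem_image.mp hm
        refine hDmem.mpr (hfree _ (hf1 y hy) fun h => ?_)
        have := hf2 y hy
        rw [h, one_smul] at this
        exact Finset.ne_of_mem_erase hy this.symm
      have hcard : S.card = q - 1 := by
        rw [Finset.card_image_of_injective, Finset.card_attach,
          Finset.card_erase_of_mem (Finset.mem_univ _), Finset.card_univ]
        intro y y' h
        apply Subtype.ext
        rw [← hf2 y.1 y.2, ← hf2 y'.1 y'.2]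
        exact congrArg (· • o₀) h
      have hSD := Finset.eq_of_subset_of_card_le hsub (by rw [hcard, hD, card_fpf hex huniq])
      intro m hm
      rw [← hSD] at hm
      obtain ⟨⟨y, hy⟩, -, rfl⟩ := Finset.mem_image.mp hm
      exact hf1 y hy
    have hsq : ∀ {m : M}, (m = 1 ∨ ∀ x : X, m • x ≠ x) → m * m = 1 := by
      rintro m (rfl | h)
      · exact one_mul 1
      · exact hinv m (hDmem.mpr h)
    have hmul : ∀ {a b : M}, (a = 1 ∨ ∀ x : X, a • x ≠ x) → (b = 1 ∨ ∀ x : X, b • x ≠ x) →
        (a * b = 1 ∨ ∀ x : X, (a * b) • x ≠ x) := by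
      intro a b ha hb
      by_cases hab : a = b
      · subst hab; exact Or.inl (hsq ha)
      rcases ha with rfl | ha
      · rwa [one_mul]
      rcases hb with rfl | hb
      · rw [mul_one]; exact Or.inr ha
      refine Or.inr fun x hx => hab ?_
      rw [mul_smul] at hx
      have h1 : a • x = b • x := by
        conv_lhs => rw [← hx, smul_smul_of_sq (hinv a (hDmem.mpr ha))]
      exact eq_of_map huniq (hinv a (hDmem.mpr ha)) (hinv b (hDmem.mpr hb)) h1 (ha x)
    let N : Subgroup M :=
      { carrier := {m | m = 1 ∨ ∀ x : X, m • x ≠ x}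
        one_mem' := Or.inl rfl
        mul_mem' := fun ha hb => hmul ha hb
        inv_mem' := fun {a} ha => by
          show a⁻¹ = 1 ∨ _
          rw [inv_eq_of_mul_eq_one_right (hsq ha)]; exact ha }
    refine ⟨N, fun m => Iff.rfl, fun a ha b hb => ?_, fun o => ⟨?_, ?_⟩,
      Or.inl ⟨he, fun n hn => hsq hn⟩⟩
    · have h := hsq (hmul ha hb)
      show a * b = b * a
      rw [eq_inv_of_mul_eq_one_left h, mul_inv_rev, inv_eq_of_mul_eq_one_right (hsq ha),
        inv_eq_of_mul_eq_one_right (hsq hb)]
    · rintro ⟨a, ha⟩ ⟨b, hb⟩ h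
      simp only at h
      apply Subtype.ext
      show a = b
      rcases ha with rfl | ha
      · rcases hb with rfl | hb
        · rfl
        · rw [one_smul] at h; exact absurd h.symm (hb o)
      · exact eq_of_map huniq (hinv a (hDmem.mpr ha)) (hsq hb) h (ha o)
    · intro y
      by_cases hy : y = o
      · exact ⟨1, by simp [hy]⟩
      · obtain ⟨m, hm, h1, -⟩ := exists_swap hex huniq (Ne.symm hy)
        refine ⟨⟨m, Or.inr (hfree m hm fun h => hy ?_)⟩, h1⟩
        rw [← h1, h, one_smul]
  · -- every point is fixed by exactly one involution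
    have hone : ∀ s : M, s * s = 1 → s ≠ 1 → ∃! x : X, s • x = x := by
      intro s hs h1
      have h := card_fixed hex huniq hs h1
      rw [Nat.odd_iff.mp ho, Finset.card_eq_one] at h
      obtain ⟨x, hx⟩ := h
      refine ⟨x, ?_, fun y hy => ?_⟩
      · have hmem := Finset.mem_singleton_self x
        rw [← hx] at hmem
        exact (Finset.mem_filter.mp hmem).2
      · exact Finset.mem_singleton.mp (hx ▸ Finset.mem_filter.mpr ⟨Finset.mem_univ _, hy⟩)
    have hfixex : ∀ x : X, ∃ s : M, s * s = 1 ∧ s ≠ 1 ∧ s • x = x := by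
      intro x
      obtain ⟨y, hy⟩ := exists_ne x
      obtain ⟨s, hs, h1, -⟩ := exists_swap hex huniq hy.symm
      have hs1 : s ≠ 1 := fun h => hy (by rw [← h1, h, one_smul])
      obtain ⟨z, hz, -⟩ := hone s hs hs1
      obtain ⟨w, hw⟩ := exists_ne z
      obtain ⟨g, hg, -⟩ := hex z w x (if x = w then z else w) hw.symm (by
        split_ifs with h
        · rw [h]; exact hw
        · exact h)
      refine ⟨g * s * g⁻¹, ?_, ?_, ?_⟩
      · rw [conj_mul, hs, mul_one, mul_inv_cancel]
      · simpa using hs1
      · rw [mul_smul, mul_smul, ← hg, inv_smul_smul, hz]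
    set I := Finset.univ.filter fun s : M => s * s = 1 ∧ s ≠ 1 with hI
    have hImem : ∀ {s : M}, s ∈ I ↔ s * s = 1 ∧ s ≠ 1 := fun {s} => by simp [hI]
    choose fx hfx hfxu using fun s : I => hone s.1 (hImem.mp s.2).1 (hImem.mp s.2).2
    have hsurj : Function.Surjective fx := fun x => by
      obtain ⟨s, h1, h2, h3⟩ := hfixex x
      exact ⟨⟨s, hImem.mpr ⟨h1, h2⟩⟩, (hfxu ⟨s, _⟩ x h3).symm⟩
    have hIle : Fintype.card I ≤ q := by
      -- count pairs (involution, moved point)
      obtain ⟨f, hf1, hf2, hf3⟩ : ∃ f : (Finset.univ : Finset X).offDiag → M,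
          (∀ p, f p * f p = 1) ∧ (∀ p, f p • p.1.1 = p.1.2) ∧ (∀ p, f p • p.1.2 = p.1.1) := by
        have h : ∀ p : (Finset.univ : Finset X).offDiag, ∃ m : M,
            m * m = 1 ∧ m • p.1.1 = p.1.2 ∧ m • p.1.2 = p.1.1 :=
          fun p => exists_swap hex huniq (Finset.mem_offDiag.mp p.2).2.2
        choose f h1 h2 h3 using h
        exact ⟨f, h1, h2, h3⟩
      have h := Fintype.card_le_of_injective
        (fun p : Σ s : I, {x : X // x ≠ fx s} =>
          (⟨(p.2.1, p.1.1 • p.2.1), Finset.mem_offDiag.mpr ⟨Finset.mem_univ _, Finset.mem_univ _,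
            fun h => p.2.2 (hfxu p.1 _ h.symm)⟩⟩ : (Finset.univ : Finset X).offDiag)) (by
          rintro ⟨s, x, hx⟩ ⟨t, y, hy⟩ h
          simp only [Subtype.mk.injEq, Prod.mk.injEq] at h
          obtain ⟨rfl, h⟩ := h
          have : s = t := Subtype.ext (eq_of_map huniq (hImem.mp s.2).1 (hImem.mp t.2).1 h
            fun e => hx (hfxu s _ e))
          subst this
          rfl)
      rw [Fintype.card_sigma, Fintype.card_coe ((Finset.univ : Finset X).offDiag),
        Finset.offDiag_card, Finset.card_univ] at h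
      simp only [Fintype.card_subtype_compl, Fintype.card_subtype_eq, Finset.sum_const,
        Finset.card_univ, smul_eq_mul] at h
      have hq2 : 2 ≤ q := Fintype.one_lt_card
      have h' : Fintype.card I * (q - 1) ≤ q * (q - 1) := by
        rw [Nat.mul_sub q q 1, mul_one]; exact h
      exact Nat.le_of_mul_le_mul_right h' (by omega)
    have hbij : Function.Bijective fx :=
      (Fintype.bijective_iff_surjective_and_card fx).mpr
        ⟨hsurj, le_antisymm hIle (Fintype.card_le_of_surjective fx hsurj)⟩
    have huni : ∀ {s t : M}, s ∈ I → t ∈ I → ∀ x : X, s • x = x → t • x = x → s = t := by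
      intro s t hs ht x h1 h2
      exact congrArg Subtype.val (hbij.1 ((hfxu ⟨s, hs⟩ x h1).symm.trans (hfxu ⟨t, ht⟩ x h2)))
    have hsinj : ∀ {s t : M}, s ∈ I → t ∈ I → ∀ x : X, s • x = t • x → s = t := by
      intro s t hs ht x h
      by_cases hsx : s • x = x
      · exact huni hs ht x hsx (h.symm.trans hsx)
      · exact eq_of_map huniq (hImem.mp hs).1 (hImem.mp ht).1 h hsx
    have hIcard : I.card = q := by
      rw [← Fintype.card_coe]; exact Fintype.card_of_bijective hbij
    have hfpf : ∀ {s t : M}, s ∈ I → t ∈ I → s ≠ t → ∀ x : X, (s * t) • x ≠ x := by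
      intro s t hs ht hne x h
      refine hne (hsinj hs ht x ?_)
      rw [mul_smul] at h
      conv_lhs => rw [← h, smul_smul_of_sq (hImem.mp hs).1]
    have hright : ∀ {t : M}, t ∈ I → ∀ {m : M}, (m = 1 ∨ ∀ x : X, m • x ≠ x) →
        ∃ s ∈ I, m = s * t := by
      intro t ht m hm
      rcases hm with rfl | hm
      · exact ⟨t, ht, (hImem.mp ht).1.symm⟩
      have hsub : (I.erase t).image (· * t) ⊆ D := fun m hm => by
        obtain ⟨s, hs, rfl⟩ := Finset.mem_image.mp hm
        exact hDmem.mpr (hfpf (Finset.mem_of_mem_erase hs) ht (Finset.ne_of_mem_erase hs))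
      have heq := Finset.eq_of_subset_of_card_le hsub (by
        rw [Finset.card_image_of_injective _ (mul_left_injective t), Finset.card_erase_of_mem ht,
          hIcard, hD, card_fpf hex huniq])
      have hm' := hDmem.mpr hm
      rw [← heq] at hm'
      obtain ⟨s, hs, rfl⟩ := Finset.mem_image.mp hm'
      exact ⟨s, Finset.mem_of_mem_erase hs, rfl⟩
    have hprod : ∀ {s t : M}, s ∈ I → t ∈ I → (s * t = 1 ∨ ∀ x : X, (s * t) • x ≠ x) := by
      intro s t hs ht
      by_cases h : s = t
      · subst h; exact Or.inl (hImem.mp hs).1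
      · exact Or.inr (hfpf hs ht h)
    have hiinv : ∀ {t : M}, t ∈ I → t⁻¹ = t := fun ht =>
      inv_eq_of_mul_eq_one_right (hImem.mp ht).1
    have hNinv : ∀ {m : M}, (m = 1 ∨ ∀ x : X, m • x ≠ x) → (m⁻¹ = 1 ∨ ∀ x : X, m⁻¹ • x ≠ x) := by
      rintro m (rfl | h)
      · exact Or.inl inv_one
      · exact Or.inr fun x hx => h x (by rwa [eq_comm, eq_inv_smul_iff] at hx)
    obtain ⟨t₀, ht₀, ht₀1, -⟩ := hfixex o₀
    have ht₀I : t₀ ∈ I := hImem.mpr ⟨ht₀, ht₀1⟩
    let N : Subgroup M :=
      { carrier := {m | m = 1 ∨ ∀ x : X, m • x ≠ x}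
        one_mem' := Or.inl rfl
        mul_mem' := fun {a b} ha hb => by
          obtain ⟨s, hs, rfl⟩ := hright ht₀I ha
          obtain ⟨c, hc, hcb⟩ := hright ht₀I (hNinv hb)
          have hb' : b = t₀ * c := by
            rw [← inv_inv b, hcb, mul_inv_rev, hiinv ht₀I, hiinv hc]
          show s * t₀ * b = 1 ∨ _
          rw [hb', mul_assoc s, ← mul_assoc t₀, ht₀, one_mul]
          exact hprod hs hc
        inv_mem' := fun ha => hNinv ha }
    have hconj : ∀ {t : M}, t ∈ I → ∀ n ∈ N, t * n * t⁻¹ = n⁻¹ := by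
      intro t ht n hn
      obtain ⟨s, hs, rfl⟩ := hright ht hn
      rw [mul_inv_rev, hiinv hs, hiinv ht, mul_assoc t, mul_assoc s t t, (hImem.mp ht).1, mul_one]
    refine ⟨N, fun m => Iff.rfl, fun a ha b hb => ?_, fun o => ⟨?_, ?_⟩, Or.inr ⟨ho, fun o => ?_⟩⟩
    · have h := hconj ht₀I _ (N.mul_mem ha hb)
      rw [← conj_mul, hconj ht₀I a ha, hconj ht₀I b hb] at h
      show a * b = b * a
      simpa [mul_inv_rev] using (congrArg (·⁻¹) h).symm
    · obtain ⟨t, ht, ht1, hto⟩ := hfixex o
      have htI : t ∈ I := hImem.mpr ⟨ht, ht1⟩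
      rintro ⟨a, ha⟩ ⟨b, hb⟩ h
      obtain ⟨s, hs, rfl⟩ := hright htI ha
      obtain ⟨s', hs', rfl⟩ := hright htI hb
      simp only [mul_smul, hto] at h
      exact Subtype.ext (congrArg (· * t) (hsinj hs hs' o h))
    · intro y
      by_cases hy : y = o
      · exact ⟨1, by simp [hy]⟩
      · obtain ⟨t, ht, ht1, hto⟩ := hfixex o
        obtain ⟨s, hs, h1, -⟩ := exists_swap hex huniq (Ne.symm hy)
        refine ⟨⟨s * t, hprod (hImem.mpr ⟨hs, fun h => hy ?_⟩) (hImem.mpr ⟨ht, ht1⟩)⟩, ?_⟩
        · rw [← h1, h, one_smul]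
        · simp only [mul_smul, hto, h1]
    · obtain ⟨t, ht, ht1, hto⟩ := hfixex o
      exact ⟨t, hto, fun n hn => hconj (hImem.mpr ⟨ht, ht1⟩) n hn⟩

end CfsgLib.SharplyTransitive
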